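import Mathlib

/-! The number of nilpotent endomorphisms of a finite vector space. -/

set_option autoImplicit false

namespace H15.Nil

open Module LinearMap Submodule

universe u
variable {F : Type*} [Field F] [Finite F]

theorem card_ext {V W : Type*} [AddCommGroup V] [Module F V] [AddCommGroup W] [Module F W] [Module.Finite F V]
    [Module.Finite F W] {J : End F V} (hJ : IsNilpotent J) :
    Nat.card {T : End F (V × W) // IsNilpotent T ∧ ∀ v, T (v, 0) = (J v, 0)} =
      Nat.card F ^ (finrank F W * finrank F V) * Nat.card {D : End F W // IsNilpotent D} := by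
  have k : ∀ T : End F (V × W), (∀ v, T (v, 0) = (J v, 0)) →
      (IsNilpotent T ↔ IsNilpotent (snd F V W ∘ₗ T ∘ₗ inr F V W : End F W)) := fun T hT => by
    have k1 : ∀ m v w, ((T ^ m) (v, w)).2 = ((snd F V W ∘ₗ T ∘ₗ inr F V W : End F W) ^ m) w := fun m v w => by
      induction m with
      | zero => rfl
      | succ m ih =>
        rw [pow_succ', pow_succ', End.mul_apply, End.mul_apply, ← ih]
        generalize (T ^ m) (v, w) = x
        conv_lhs => rw [show x = (x.1, 0) + (0, x.2) by simp, map_add, hT]
        simp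
    have k2 : ∀ m v, (T ^ m) (v, 0) = ((J ^ m) v, 0) := fun m v => by
      induction m with
      | zero => rfl
      | succ m ih => rw [pow_succ', pow_succ', End.mul_apply, End.mul_apply, ih, hT]
    obtain ⟨r, hr⟩ := hJ
    refine ⟨fun ⟨m, hm⟩ => ⟨m, LinearMap.ext fun w => by rw [← k1 m 0, hm]; rfl⟩,
      fun ⟨m, hm⟩ => ⟨r + m, LinearMap.ext fun x => ?_⟩⟩
    rw [pow_add, End.mul_apply, show (T ^ m) x = (((T ^ m) x).1, 0) from Prod.ext rfl (by
      rw [show x = (x.1, x.2) from rfl, k1, hm]; rfl), k2, hr]
    rfl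
  rw [← finrank_linearMap F F, ← natCard_eq_pow_finrank, ← Nat.card_prod]
  refine Nat.card_congr
    { toFun := fun T => (fst F V W ∘ₗ T.1 ∘ₗ inr F V W, ⟨_, (k T.1 T.2.2).1 T.2.1⟩)
      invFun := fun p => ⟨coprod (inl F V W ∘ₗ J) (p.1.prod p.2.1), (k _ (by simp)).2 (by
        convert p.2.2; ext; simp), by simp⟩
      left_inv := fun T => Subtype.ext (LinearMap.ext fun x => by
        conv_rhs => rw [show x = (x.1, 0) + (0, x.2) by simp, map_add, T.2.2]
        simp)
      right_inv := fun p => Prod.ext (by ext; simp) (Subtype.ext (by ext; simp)) }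

variable {X : Type u} [AddCommGroup X] [Module F X] [Module.Finite F X]

/-- `T` moves along the chain `b` -/
def Ch {k : ℕ} (T : End F X) (b : Fin (k + 1) → X) : Prop := ∀ i : Fin k, T (b i.succ) = b i.castSucc

omit [Finite F] [Module.Finite F X] in
theorem Ch.pow {k : ℕ} {T : End F X} {b : Fin (k + 1) → X} (h : Ch T b) (i : Fin (k + 1)) :
    (T ^ (i : ℕ)) (b i) = b 0 := by
  induction i using Fin.induction with
  | zero => rfl
  | succ i ih => rw [Fin.val_succ, pow_succ, End.mul_apply, h, ← ih, Fin.val_castSucc]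

omit [Finite F] [Module.Finite F X] in
theorem ch_cons {k : ℕ} {T : End F X} {b : Fin (k + 1) → X} {w : X} :
    Ch T (Fin.cons w b : Fin (k + 2) → X) ↔ Ch T b ∧ T (b 0) = w := by
  rw [Ch, Fin.forall_fin_succ, and_comm]; rfl

omit [Finite F] in
theorem Ch.eq_zero {k : ℕ} {T : End F X} {b : Fin (k + 1) → X} (h : Ch T b) (hb : LinearIndependent F b)
    (hT : IsNilpotent T) (h0 : T (b 0) ∈ span F (Set.range b)) : T (b 0) = 0 := by
  have hm : ∀ x ∈ span F (Set.range b), T x ∈ span F (Set.range b) := fun x hx =>
    (span_le (p := (span F (Set.range b)).comap T)).2 (by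
      rintro _ ⟨i, rfl⟩
      refine Fin.cases h0 (fun i => ?_) i
      exact mem_comap.2 (h i ▸ subset_span ⟨_, rfl⟩)) hx
  have h1 := aeval_self_charpoly (T.restrict hm)
  rw [(isNilpotent_iff_charpoly _).1 (End.isNilpotent.restrict hm hT), finrank_span_eq_card hb, Fintype.card_fin,
    Polynomial.aeval_X_pow, End.pow_restrict] at h1
  have := congrArg Subtype.val (LinearMap.congr_fun h1 ⟨b (Fin.last k), subset_span ⟨_, rfl⟩⟩)
  rw [← h.pow (Fin.last k), ← End.mul_apply, ← pow_succ']
  exact this

theorem card_zero {k : ℕ} {b : Fin (k + 1) → X} (hb : LinearIndependent F b) : ∃ W : Submodule F X,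
    finrank F W + (k + 1) = finrank F X ∧ Nat.card {T : End F X // IsNilpotent T ∧ Ch T b ∧ T (b 0) = 0} =
      Nat.card F ^ (finrank F W * (k + 1)) * Nat.card {D : End F W // IsNilpotent D} := by
  obtain ⟨W, hW⟩ := (span F (Set.range b)).exists_isCompl
  have hd : finrank F (span F (Set.range b)) = k + 1 := by rw [finrank_span_eq_card hb, Fintype.card_fin]
  let B := Basis.span hb
  let J : End F (span F (Set.range b)) := B.constr F (Fin.cons 0 fun i => B i.castSucc)
  have hJ : Ch J B := fun i => by simp [J]
  have h0 : J (B 0) = 0 := by simp [J]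
  refine ⟨W, by rw [← hd, add_comm, finrank_add_eq_of_isCompl hW], ?_⟩
  rw [show finrank F W * (k + 1) = finrank F W * finrank F (span F (Set.range b)) by rw [hd], ← card_ext (J := J) ⟨k + 1, B.ext fun i => by
    rw [show J ^ (k + 1) = J ^ (k - i + 1) * J ^ (i : ℕ) by rw [← pow_add]; congr 1; omega, End.mul_apply, hJ.pow, pow_succ, End.mul_apply, h0, map_zero]
    rfl⟩]
  let e := prodEquivOfIsCompl _ _ hW
  refine (Nat.card_congr ((e.conjAlgEquiv F).toEquiv.subtypeEquiv fun T => and_congr
    (IsNilpotent.map_iff (e.conjAlgEquiv F).injective).symm ?_)).symm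
  have k1 : ∀ i, e.symm (b i) = (B i, 0) := fun i => by rw [e.symm_apply_eq]; simp [e, B]
  have k2 : ∀ i y, (e.conjAlgEquiv F T) (b i) = e (y, 0) ↔ T (B i, 0) = (y, 0) := fun i y => by
    simp [LinearEquiv.conjAlgEquiv_apply, k1]
  have k3 : (∀ v, T (v, 0) = (J v, 0)) ↔ ∀ i, T (B i, 0) = (J (B i), 0) :=
    ⟨fun h i => h _, fun h => LinearMap.congr_fun (B.ext h : T ∘ₗ inl F _ W = inl F _ W ∘ₗ J)⟩
  rw [k3, Fin.forall_fin_succ, and_comm, h0, ← k2]
  refine and_congr (forall_congr' fun i => ?_) (by simp [Prod.ext_iff])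
  rw [hJ, ← k2, ← k1, e.apply_symm_apply]; rfl

theorem card_nil (n : ℕ) : ∀ (X : Type u) [AddCommGroup X] [Module F X] [Module.Finite F X], finrank F X = n →
    Nat.card {T : End F X // IsNilpotent T} = Nat.card F ^ (n * (n - 1)) := by
  induction n using Nat.strong_induction_on with
  | _ n ih =>
  intro X _ _ _ hn
  have := Module.finite_of_finite F (M := X)
  have : Finite (End F X) := Finite.of_injective _ DFunLike.coe_injective
  have key : ∀ m k (b : Fin (k + 1) → X), LinearIndependent F b → k + 1 + m = n →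
      Nat.card {T : End F X // IsNilpotent T ∧ Ch T b} = Nat.card F ^ (n * m) := fun m => by
    classical
    have := Fintype.ofFinite X
    have k0 : ∀ k (b : Fin (k + 1) → X), LinearIndependent F b → ∀ c, (∀ w ∉ span F (Set.range b),
        Nat.card {T : End F X // IsNilpotent T ∧ Ch T (Fin.cons w b : Fin (k + 2) → X)} = c) →
        Nat.card {T : End F X // IsNilpotent T ∧ Ch T b} = Nat.card F ^ ((n - (k + 1)) * (n - 1)) +
          (Nat.card F ^ n - Nat.card F ^ (k + 1)) * c := fun k b hb c hc => by
      obtain ⟨W, h1, h2⟩ := card_zero hb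
      rw [ih _ (by omega) W rfl, ← pow_add, ← mul_add] at h2
      rw [← Nat.card_congr (Equiv.sigmaFiberEquiv fun T : {T : End F X // IsNilpotent T ∧ Ch T b} => T.1 (b 0)),
        Nat.card_sigma, ← Finset.sum_filter_add_sum_filter_not _ (· ∈ span F (Set.range b)),
        Finset.sum_eq_single_of_mem 0 (by simp), Finset.sum_congr rfl (g := fun _ => c), Finset.sum_const]
      · congr 1
        · rw [Nat.card_congr (Equiv.subtypeSubtypeEquivSubtypeInter _ fun T : End F X => T (b 0) = 0)]
          simp only [and_assoc, h2]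
          congr 1
          rcases Nat.eq_zero_or_pos (finrank F W) with e | e
          · rw [e, show n - (k + 1) = 0 by omega, zero_mul, zero_mul]
          · congr 1 <;> omega
        · have := Finset.card_filter_add_card_filter_not (s := Finset.univ) (· ∈ span F (Set.range b))
          rw [Finset.card_univ, ← Nat.card_eq_fintype_card, natCard_eq_pow_finrank (K := F), hn, ← Fintype.card_subtype,
            ← Nat.card_eq_fintype_card, natCard_eq_pow_finrank (K := F) (V := span F (Set.range b)),
            finrank_span_eq_card hb, Fintype.card_fin] at this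
          rw [← this, Nat.add_sub_cancel_left, smul_eq_mul]
      · intro w hw
        rw [Nat.card_congr (Equiv.subtypeSubtypeEquivSubtypeInter _ fun T : End F X => T (b 0) = w),
          ← hc w (Finset.mem_filter.1 hw).2]
        simp only [and_assoc, ch_cons]
      · intro w hw h0
        have : IsEmpty {T : {T : End F X // IsNilpotent T ∧ Ch T b} // T.1 (b 0) = w} :=
          ⟨fun T => h0 (T.2 ▸ T.1.2.2.eq_zero hb T.1.2.1 (T.2.symm ▸ (Finset.mem_filter.1 hw).2))⟩
        exact Nat.card_of_isEmpty
    induction m with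
    | zero =>
      intro k b hb e
      rw [k0 k b hb 0 fun w hw => (hw ?_).elim, show n - (k + 1) = 0 by omega]
      · simp
      · rw [eq_top_of_finrank_eq (S := span F (Set.range b)) (by
          rw [finrank_span_eq_card hb, Fintype.card_fin]; omega)]
        trivial
    | succ m ihm =>
      intro k b hb e
      rw [k0 k b hb _ fun w hw => ihm _ _ (linearIndependent_finCons.2 ⟨hb, hw⟩) (by omega),
        show n - (k + 1) = m + 1 by omega, show (m + 1) * (n - 1) = k + 1 + n * m by
          rw [← e, show k + 1 + (m + 1) - 1 = k + 1 + m by omega]; ring, pow_add, ← add_mul,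
        Nat.add_sub_cancel' (Nat.pow_le_pow_right Nat.card_pos (by omega)), ← pow_add, mul_add, mul_one, add_comm]
  rcases n with _ | n
  · have := finrank_zero_iff.1 hn
    have : Subsingleton (End F X) := ⟨fun _ _ => LinearMap.ext fun _ => Subsingleton.elim _ _⟩
    have : Nonempty {T : End F X // IsNilpotent T} := ⟨⟨0, .zero⟩⟩
    simp
  · have := finrank_pos_iff.1 (show 0 < finrank F X by omega)
    obtain ⟨v, hv⟩ := exists_ne (0 : X)
    rw [add_tsub_cancel_right, ← key n 0 (fun _ => v) ((linearIndependent_unique_iff (ι := Fin 1)).2 hv) (by omega)]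
    simp [Ch]

end H15.Nil
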