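import Cfsg.Agent.H26.Rv1
/-! An invariant alternating form in characteristic two is the polar form of an invariant bilinear form. -/
set_option autoImplicit false
namespace H15.Two
open Cfsg H17 H19 H26Rv Subgroup
universe u
variable {p : ℕ} [Fact p.Prime] {H : Type u} [Group H] [Finite H] {O : ValuationSubring ℂ}

theorem half {U : Type*} [AddCommGroup U] [Module (ZMod 2) U] [Finite U] (β : U →ₗ[ZMod 2] U →ₗ[ZMod 2] ZMod 2)
    (h : ∀ x, β x x = 0) : ∃ γ : U →ₗ[ZMod 2] U →ₗ[ZMod 2] ZMod 2, ∀ x y, γ x y + γ y x = β x y := by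
  classical
  let b := Module.finBasis (ZMod 2) U
  have sy : ∀ x y, β x y = β y x := fun x y => by
    have := h (x + y)
    simp only [map_add, LinearMap.add_apply, h, zero_add, add_zero] at this
    rw [eq_neg_of_add_eq_zero_left this, ZMod.neg_eq_self_mod_two]
  let γ : U →ₗ[ZMod 2] U →ₗ[ZMod 2] ZMod 2 :=
    b.constr (ZMod 2) fun i => b.constr (ZMod 2) fun j => if i < j then β (b i) (b j) else 0
  have e : γ + γ.flip = β := b.ext fun i => b.ext fun j => by
    simp only [γ, LinearMap.add_apply, LinearMap.flip_apply, Module.Basis.constr_basis]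
    rcases lt_trichotomy i j with k | rfl | k
    · rw [if_pos k, if_neg k.not_gt, add_zero]
    · rw [if_neg (lt_irrefl _), add_zero, h]
    · rw [if_neg k.not_gt, if_pos k, zero_add, sy]
  exact ⟨γ, fun x y => by rw [← e]; rfl⟩

theorem two (hp : ¬ p ∣ Nat.card H) : TwoP p H := by
  rintro rfl U _ _ _ ρ β hi h
  classical
  have := Fintype.ofFinite H
  obtain ⟨γ, hγ⟩ := half β h
  have c : (Fintype.card H : ZMod 2) = 1 := by
    rw [← Nat.card_eq_fintype_card]
    exact (ZMod.natCast_eq_one_iff_odd).2 (Nat.odd_iff.2 (by omega))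
  refine ⟨∑ g : H, γ.compl₁₂ (ρ g) (ρ g), fun g x y => ?_, fun x y => ?_⟩
  · simp only [LinearMap.sum_apply, LinearMap.compl₁₂_apply]
    exact Fintype.sum_equiv (Equiv.mulRight g) _ _ fun k => by simp
  · simp only [LinearMap.sum_apply, LinearMap.compl₁₂_apply, ← Finset.sum_add_distrib, hγ, hi _ x y]
    rw [Finset.sum_const, Finset.card_univ, nsmul_eq_mul, c, one_mul]
end H15.Two
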