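import Cfsg.Agent.H24.Facts

/-! Words in the Weyl groups: centres and generation. -/

set_option autoImplicit false

namespace H15.Wy

open Cfsg Subgroup H24

/-- the element given by a word -/
abbrev wp {n : ℕ} (M : CoxeterMatrix (Fin n)) (l : List (Fin n)) : M.Group := (l.map M.simple).prod

theorem wp_append {n : ℕ} (M : CoxeterMatrix (Fin n)) (l m : List (Fin n)) :
    wp M (l ++ m) = wp M l * wp M m := by simp [wp]

theorem wp_reverse {n : ℕ} (M : CoxeterMatrix (Fin n)) (l : List (Fin n)) : wp M l.reverse = (wp M l)⁻¹ :=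
  M.toCoxeterSystem.wordProd_reverse l

theorem eq_top {n : ℕ} (M : CoxeterMatrix (Fin n)) {K : Subgroup M.Group} (h : ∀ i, M.simple i ∈ K) :
    K = ⊤ := by
  rw [eq_top_iff, ← M.toCoxeterSystem.subgroup_closure_range_simple, closure_le]
  rintro _ ⟨i, rfl⟩
  exact h i

theorem mem_center {n : ℕ} (M : CoxeterMatrix (Fin n)) {z : M.Group}
    (h : ∀ i, M.simple i * z = z * M.simple i) : z ∈ center M.Group :=
  Set.singleton_subset_iff.1 (centralizer_eq_top_iff_subset.1 (eq_top M (K := centralizer {z}) fun i =>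
    mem_centralizer_singleton_iff.2 (h i)))

theorem flat_mem {n : ℕ} (M : CoxeterMatrix (Fin n)) {K : Subgroup M.Group} (g : List (List (Fin n)))
    (hg : ∀ w ∈ g, wp M w ∈ K) (l : List ℕ) : wp M (l.flatMap fun a => g.getD a []) ∈ K := by
  induction l with
  | nil => exact one_mem _
  | cons a l ih =>
    rw [List.flatMap_cons, wp_append]
    refine mul_mem ?_ ih
    rw [List.getD_eq_getElem?_getD]
    cases e : g[a]? with
    | none => exact one_mem _
    | some w => exact hg w (List.mem_of_getElem? e)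

theorem central_sim {ι Φ : Type} [Fintype ι] [DecidableEq ι] (R : RS ι Φ) (hc : ∃ r, ∀ i, R.rt r i ≠ 0)
    {z : Equiv.Perm Φ} (hz : z ∈ R.Aut) (h : ∀ i, R.s i * z = z * R.s i) (h1 : z ≠ 1) (i : ι) :
    z (R.sim i) = R.neg (R.sim i) := by
  have k : ∀ i, z (R.sim i) = R.sim i ∨ z (R.sim i) = R.neg (R.sim i) := fun i => by
    refine R.reduced _ i fun j hj => ?_
    have e := congrArg (fun w : Equiv.Perm Φ => R.rt (w (R.sim i)) j) (h i)
    simp only [Equiv.Perm.mul_apply, R.s_sim, RS.Aut.neg hz, R.rt_neg, R.rt_s_of_ne i _ hj, Pi.neg_apply] at e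
    omega
  obtain ⟨r, hr⟩ := hc
  have k2 : ∀ i, R.rt (z r) i = R.rt r i * R.rt (z (R.sim i)) i := fun i => by
    rw [← RS.Aut.lin_rt hz, R.lin_apply, Finset.sum_apply, Finset.sum_eq_single i]
    · simp
    · intro j _ hj
      rcases k j with e | e <;> simp [e, R.rt_neg, R.rt_sim, Pi.single_eq_of_ne hj.symm]
    · simp
  by_contra hi
  replace hi := (k i).resolve_right hi
  refine h1 (RS.Aut.eq_one_of_fix hz fun j => (k j).resolve_right fun hj => ?_)
  have e1 := k2 i
  have e2 := k2 j
  rw [hi, R.rt_sim] at e1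
  rw [hj, R.rt_neg, R.rt_sim] at e2
  simp only [Pi.single_eq_same, mul_one, Pi.neg_apply, mul_neg] at e1 e2
  have a1 := hr i
  have a2 := hr j
  rcases R.sign r with h2 | h2 <;> rcases R.sign (z r) with h3 | h3 <;>
    (have := h2 i; have := h2 j; have := h3 i; have := h3 j; omega)

variable {D : Lie.ChevalleyDatum} {T : Tab} (h : T.Chk D) (M : CoxeterMatrix (Fin D.rank))
  (H : ∃ e : M.Group ≃* h.rsys.W, ∀ i, e (M.simple i) = h.rsys.sW i)
include H

theorem exists_hom : ∃ φ : M.Group →* Equiv.Perm (Fin D.nroots), Function.Injective φ ∧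
    (∀ g, φ g ∈ h.rsys.W) ∧ ∀ l, φ (wp M l) = h.rsys.wd l := by
  obtain ⟨e, he⟩ := H
  refine ⟨h.rsys.W.subtype.comp e.toMonoidHom, Subtype.val_injective.comp e.injective, fun g => (e g).2,
    fun l => ?_⟩
  rw [← h.rsys.coe_wp_sW]
  change (e _).1 = _
  rw [map_list_prod, List.map_map]
  congr 2
  exact List.map_congr_left fun i _ => he i

theorem ord (l : List (Fin D.rank)) {m : ℕ} (hm : T.chkOrd (l.map Fin.val) m = true) :
    orderOf (wp M l) = m := by
  obtain ⟨φ, h1, -, h2⟩ := exists_hom h M H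
  rw [← orderOf_injective φ h1, h2, h.ord_spec l hm]

theorem word_eq (l m : List (Fin D.rank)) (hm : T.chkOrd ((l ++ m.reverse).map Fin.val) 1 = true) :
    wp M l = wp M m := by
  have := ord h M H _ hm
  rwa [orderOf_eq_one_iff, wp_append, wp_reverse, mul_inv_eq_one] at this

theorem gen {K : Subgroup M.Group} (g : List (List (Fin D.rank))) (hg : ∀ w ∈ g, wp M w ∈ K)
    (ws : List (List ℕ)) (hw : ∀ i : Fin D.rank, T.chkOrd
      ((((ws.getD i []).flatMap fun a => g.getD a []) ++ [i].reverse).map Fin.val) 1 = true) : K = ⊤ :=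
  eq_top M fun i => by
    have := flat_mem M g hg (ws.getD i [])
    rwa [word_eq h M H _ _ (hw i), wp, List.map_singleton, List.prod_singleton] at this

theorem center_uniq (hc : T.chkConn = true) {z z' : M.Group} (hz : z ∈ center M.Group)
    (hz' : z' ∈ center M.Group) (h1 : z ≠ 1) (h1' : z' ≠ 1) : z = z' := by
  obtain ⟨φ, h2, h3, h4⟩ := exists_hom h M H
  have k : ∀ z ∈ center M.Group, z ≠ 1 → ∀ i, φ z (h.rsys.sim i) = h.rsys.neg (h.rsys.sim i) :=
    fun z hz h1 => central_sim h.rsys (h.conn hc) (h.rsys.W_le_Aut (h3 z)) (fun i => by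
      rw [← RS.wd_singleton, ← h4, ← map_mul, ← map_mul, mem_center_iff.1 hz])
      fun e => h1 (h2 (e.trans (map_one φ).symm))
  exact h2 (RS.Aut.ext (h.rsys.W_le_Aut (h3 z)) (h.rsys.W_le_Aut (h3 z')) fun i => by
    rw [k z hz h1, k z' hz' h1'])

theorem center_two (hc : T.chkConn = true) (c : List (Fin D.rank)) (k : ℕ)
    (h2 : T.chkOrd ((List.replicate k c).flatten.map Fin.val) 2 = true)
    (h3 : ∀ i : Fin D.rank, T.chkOrd ((([i] ++ (List.replicate k c).flatten) ++
      ((List.replicate k c).flatten ++ [i]).reverse).map Fin.val) 1 = true) :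
    Nat.card (center M.Group) = 2 ∧ center M.Group ≤ zpowers (wp M c) := by
  have e : ∀ k, wp M (List.replicate k c).flatten = wp M c ^ k := fun k => by
    induction k with
    | zero => simp [wp]
    | succ k ih => rw [List.replicate_succ, List.flatten_cons, wp_append, ih, pow_succ']
  have o := ord h M H _ h2
  have m : wp M (List.replicate k c).flatten ∈ center M.Group := mem_center M fun i => by
    have := word_eq h M H _ _ (h3 i)
    rw [wp_append, wp_append] at this
    simpa [wp] using this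
  have : center M.Group = zpowers (wp M (List.replicate k c).flatten) := by
    refine le_antisymm (fun z hz => ?_) (zpowers_le.2 m)
    by_cases h1 : z = 1
    · rw [h1]; exact one_mem _
    · rw [center_uniq h M H hc hz m h1 (fun e => by rw [e, orderOf_one] at o; omega)]
      exact mem_zpowers _
  rw [this, Nat.card_zpowers, o, e]
  exact ⟨rfl, zpowers_le.2 (pow_mem (mem_zpowers _) _)⟩

theorem center_one (hc : T.chkConn = true) (v : List (Fin D.rank)) (σ : Fin D.rank → Fin D.rank)
    (h2 : ∀ i : Fin D.rank, T.appl (v.map Fin.val) (T.simple i) = T.neg (T.simple (σ i)))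
    (h3 : ∃ i, σ i ≠ i) : center M.Group = ⊥ := by
  obtain ⟨φ, h4, h5, h6⟩ := exists_hom h M H
  rw [eq_bot_iff_forall]
  intro z hz
  by_contra h1
  have k := central_sim h.rsys (h.conn hc) (h.rsys.W_le_Aut (h5 z)) (fun i => by
      rw [← RS.wd_singleton, ← h6, ← map_mul, ← map_mul, mem_center_iff.1 hz])
      fun e => h1 (h4 (e.trans (map_one φ).symm))
  have k2 : ∀ i, (φ z * h.rsys.wd v) (h.rsys.sim i) = h.rsys.sim (σ i) := fun i => by
    have : h.rsys.wd v (h.rsys.sim i) = h.rsys.neg (h.rsys.sim (σ i)) :=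
      Fin.ext (by rw [h.val_wd, h.val_neg, h.val_sim, h.val_sim, h2])
    rw [Equiv.Perm.mul_apply, this, RS.Aut.neg (h.rsys.W_le_Aut (h5 z)), k, RS.neg_neg']
  have := RS.W_eq_one_of_pos (mul_mem (h5 z) (h.rsys.wd_mem_W v)) fun i => k2 i ▸ h.rsys.pos_sim _
  obtain ⟨i, hi⟩ := h3
  exact hi (h.rsys.sim_inj (by rw [← k2, this]; rfl))

end H15.Wy
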